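import Cfsg.Agent.H150.Toral.Mackey
import Cfsg.Agent.OddOrderCharacters.PF9.MackeyIrr
import Cfsg.Agent.H119.SLVec

/-!
# The characters of `PSL_3(q)` of degree `q² + q + 1` (helper855, S4947)

`Q F` is the stabilizer of a point of the projective plane in `PSL_3(F)`; `xi lam h : Q F →* ℂˣ` is the linear character
`lam (eigenvalue)`, `lam : Fˣ →* ℂˣ` trivial on the elements of order 3.

* `irr_ind` : the induced character is irreducible for `lam ≠ 1`;
* `ind_ne` : different `lam` give different characters;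
* `ind_one` : the degree is `q² + q + 1`.
-/

set_option autoImplicit false

namespace Cfsg.Agent.H855.FourOdd

open Cfsg Matrix Cfsg.Agent.H150.Toral Cfsg.Agent.H119.SLVec
open scoped ComplexConjugate LinearAlgebra.Projectivization

universe u

variable (F : Type u) [Field F]

/-- the first basis vector -/
def e0 : Fin 3 → F := Pi.single 0 1

/-- the second basis vector -/
def e1 : Fin 3 → F := Pi.single 1 1

theorem e0_ne : e0 F ≠ 0 := fun h => by
  have := congrFun h 0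
  simp [e0] at this

theorem e0_zero : e0 F 0 = 1 := by simp [e0]

theorem indep_e : LinearIndependent F ![e0 F, e1 F] := by
  rw [LinearIndependent.pair_iff]
  intro s t h
  have h0 := congrFun h 0
  have h1 := congrFun h 1
  simp [e0, e1] at h0 h1
  exact ⟨h0, h1⟩

/-- the point -/
def p0 : ℙ F (Fin 3 → F) := Projectivization.mk F (e0 F) (e0_ne F)

/-- the stabilizer of the point in `PSL_3` -/
def Q : Subgroup (ProjectiveSpecialLinearGroup (Fin 3) F) :=
  MulAction.stabilizer (ProjectiveSpecialLinearGroup (Fin 3) F) (p0 F)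

/-- the projection -/
abbrev pr : SpecialLinearGroup (Fin 3) F →* ProjectiveSpecialLinearGroup (Fin 3) F := QuotientGroup.mk' _

/-- the stabilizer of the point in `SL_3` -/
def P : Subgroup (SpecialLinearGroup (Fin 3) F) := (Q F).comap (pr F)

variable {F}

theorem mem_P {g : SpecialLinearGroup (Fin 3) F} : g ∈ P F ↔ ∃ c : F, g.1 *ᵥ e0 F = c • e0 F := by
  rw [P, Subgroup.mem_comap, Q, MulAction.mem_stabilizer_iff]
  change g • p0 F = p0 F ↔ _
  rw [p0, Projectivization.smul_mk, Projectivization.mk_eq_mk_iff']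
  constructor
  · rintro ⟨a, ha⟩
    exact ⟨a, ha.symm⟩
  · rintro ⟨a, ha⟩
    exact ⟨a, ha.symm⟩

theorem col_zero (g : SpecialLinearGroup (Fin 3) F) : (g.1 *ᵥ e0 F) 0 = g.1 0 0 := by
  simp [e0]

theorem P_spec {g : SpecialLinearGroup (Fin 3) F} (hg : g ∈ P F) : g.1 *ᵥ e0 F = g.1 0 0 • e0 F := by
  obtain ⟨c, hc⟩ := mem_P.1 hg
  have h := congrFun hc 0
  rw [col_zero, Pi.smul_apply, e0_zero, smul_eq_mul, mul_one] at h
  rw [hc, h]

theorem eq_of_mulVec {g : SpecialLinearGroup (Fin 3) F} {c : F} (h : g.1 *ᵥ e0 F = c • e0 F) : g.1 0 0 = c := by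
  have h := congrFun h 0
  rwa [col_zero, Pi.smul_apply, e0_zero, smul_eq_mul, mul_one] at h

theorem P_ne {g : SpecialLinearGroup (Fin 3) F} (hg : g ∈ P F) : g.1 0 0 ≠ 0 := by
  intro h0
  have h := P_spec hg
  rw [h0, zero_smul] at h
  have h1 := congrArg (g⁻¹.1 *ᵥ ·) h
  simp only [mulVec_zero] at h1
  rw [← mul_mulVec, inv_mul_cancel, one_mulVec'] at h1
  exact e0_ne F h1

/-- the eigenvalue -/
noncomputable def ev : P F →* Fˣ where
  toFun g := Units.mk0 (g.1.1 0 0) (P_ne g.2)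
  map_one' := by
    apply Units.ext
    simp
  map_mul' g h := by
    apply Units.ext
    have h1 : (g * h : P F).1.1 *ᵥ e0 F = (g.1.1 0 0 * h.1.1 0 0) • e0 F := by
      rw [Subgroup.coe_mul, mul_mulVec, P_spec h.2, mulVec_smul, P_spec g.2, smul_smul, mul_comm]
    exact eq_of_mulVec h1

theorem ev_eq {g : P F} {c : Fˣ} (h : g.1.1 *ᵥ e0 F = (c : F) • e0 F) : ev g = c :=
  Units.ext (eq_of_mulVec h)

/-- the projection of the stabilizers -/
noncomputable def pq : P F →* Q F := (pr F).subgroupComap (Q F)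

theorem pq_surjective : Function.Surjective (pq (F := F)) :=
  (pr F).subgroupComap_surjective_of_surjective (Q F) (QuotientGroup.mk'_surjective _)

theorem pq_coe (g : P F) : (pq g : ProjectiveSpecialLinearGroup (Fin 3) F) = pr F g := rfl

theorem ev_ker (lam : Fˣ →* ℂˣ) (h : ∀ c : Fˣ, c ^ 3 = 1 → lam c = 1) :
    (pq (F := F)).ker ≤ (lam.comp ev).ker := by
  intro g hg
  have h1 : pr F (g : SpecialLinearGroup (Fin 3) F) = 1 := by
    rw [← pq_coe, MonoidHom.mem_ker.1 hg]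
    rfl
  have h2 : (g : SpecialLinearGroup (Fin 3) F) ∈ Subgroup.center (SpecialLinearGroup (Fin 3) F) :=
    (QuotientGroup.eq_one_iff _).1 h1
  obtain ⟨r, hr, hg'⟩ := Matrix.SpecialLinearGroup.mem_center_iff.1 h2
  rw [Fintype.card_fin] at hr
  have hr0 : r ≠ 0 := by
    rintro rfl
    norm_num at hr
  have h3 : ev g = Units.mk0 r hr0 := by
    refine ev_eq ?_
    rw [← hg', Matrix.scalar_apply, Units.val_mk0]
    funext i
    simp [Matrix.diagonal_apply, mulVec, dotProduct]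
  rw [MonoidHom.mem_ker, MonoidHom.comp_apply, h3]
  exact h _ (Units.ext (by simpa using hr))

/-- the linear character of the stabilizer -/
noncomputable def xi (lam : Fˣ →* ℂˣ) (h : ∀ c : Fˣ, c ^ 3 = 1 → lam c = 1) : Q F →* ℂˣ :=
  (pq (F := F)).liftOfSurjective pq_surjective ⟨lam.comp ev, ev_ker lam h⟩

theorem xi_apply (lam : Fˣ →* ℂˣ) (h : ∀ c : Fˣ, c ^ 3 = 1 → lam c = 1) (g : P F) : xi lam h (pq g) = lam (ev g) :=
  MonoidHom.liftOfRightInverse_comp_apply _ _ _ ⟨lam.comp ev, ev_ker lam h⟩ g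

/-- elements of the stabilizer with given eigenvalue fixing a vector -/
theorem exists_fix {v : Fin 3 → F} (hv : LinearIndependent F ![e0 F, v]) (t : Fˣ) :
    ∃ a : P F, ev a = t ∧ a.1.1 *ᵥ v = v := by
  have h' : LinearIndependent F ![(t : F) • e0 F, v] := by
    rw [LinearIndependent.pair_iff] at hv ⊢
    intro s r hsr
    rw [smul_smul] at hsr
    obtain ⟨h1, h2⟩ := hv _ _ hsr
    exact ⟨(mul_eq_zero.1 h1).resolve_right t.ne_zero, h2⟩
  obtain ⟨g, hg, hgv⟩ := exists_map_pair (le_refl 3) hv h'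
  exact ⟨⟨g, mem_P.2 ⟨t, hg⟩⟩, ev_eq hg, hgv⟩

theorem indep_of_notMem {g : SpecialLinearGroup (Fin 3) F} (hg : g ∉ P F) :
    LinearIndependent F ![e0 F, g.1 *ᵥ e0 F] := by
  rw [LinearIndependent.pair_iff' (e0_ne F)]
  intro a ha
  exact hg (mem_P.2 ⟨a, ha.symm⟩)

/-- **the fusion**: for `g ∉ P` there are `a, b ∈ P`, `b = g⁻¹ a g`, with arbitrary eigenvalue of `a` and eigenvalue `1`
of `b` -/
theorem exists_conj {g : SpecialLinearGroup (Fin 3) F} (hg : g ∉ P F) (t : Fˣ) :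
    ∃ a b : P F, (b : SpecialLinearGroup (Fin 3) F) = g⁻¹ * a * g ∧ ev a = t ∧ ev b = 1 := by
  obtain ⟨a, ha, hav⟩ := exists_fix (indep_of_notMem hg) t
  have hb : (g⁻¹ * a * g : SpecialLinearGroup (Fin 3) F).1 *ᵥ e0 F = (1 : F) • e0 F := by
    rw [mul_mulVec, mul_mulVec, hav, ← mul_mulVec, inv_mul_cancel, one_mulVec', one_smul]
  exact ⟨a, ⟨_, mem_P.2 ⟨1, hb⟩⟩, rfl, ha, ev_eq (by rw [Units.val_one]; exact hb)⟩

section

variable [Fintype F]

noncomputable instance instFintypePSL : Fintype (ProjectiveSpecialLinearGroup (Fin 3) F) := by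
  have : Finite (ProjectiveSpecialLinearGroup (Fin 3) F) := by
    unfold ProjectiveSpecialLinearGroup
    infer_instance
  exact Fintype.ofFinite _

/-- the induced character -/
noncomputable def ic (lam : Fˣ →* ℂˣ) (h : ∀ c : Fˣ, c ^ 3 = 1 → lam c = 1) :
    ProjectiveSpecialLinearGroup (Fin 3) F → ℂ := indFun (Q F) (fun x => (xi lam h x : ℂ))

theorem irr_ind {lam : Fˣ →* ℂˣ} (h : ∀ c : Fˣ, c ^ 3 = 1 → lam c = 1) (hne : lam ≠ 1) :
    IsIrrCharacter (ProjectiveSpecialLinearGroup (Fin 3) F) (ic lam h) := by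
  refine OddOrderCharacters.PF9.MackeyIrr.isIrr_ind (Q F) (xi lam h) fun g hg => ?_
  by_contra hgQ
  apply hne
  ext1 t
  obtain ⟨γ, rfl⟩ := QuotientGroup.mk'_surjective _ g
  have h1 : γ⁻¹ ∉ P F := fun h' => hgQ ((inv_mem_iff (H := P F)).1 h')
  obtain ⟨a, b, hab, ha, hb⟩ := exists_conj h1 t
  have h2 := hg (pq a) (pq b) (by
    rw [pq_coe, pq_coe, hab, inv_inv, map_mul, map_mul, map_inv])
  rw [xi_apply, xi_apply, ha, hb, map_one] at h2
  rw [h2]
  rfl

theorem inner_ind {lam mu : Fˣ →* ℂˣ} (hl : ∀ c : Fˣ, c ^ 3 = 1 → lam c = 1) (hm : ∀ c : Fˣ, c ^ 3 = 1 → mu c = 1)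
    (hne : lam ≠ 1) (hne' : lam ≠ mu) : classInner (ic lam hl) (ic mu hm) = 0 := by
  unfold ic
  rw [inner_eq_mterm, Finset.sum_eq_zero, mul_zero]
  intro g _
  apply mterm_of_not_good
  intro hg
  by_cases hgQ : g ∈ Q F
  · apply hne'
    ext1 t
    obtain ⟨a, ha, -⟩ := exists_fix (indep_e F) t
    have h1 := hg (pq a) ((⟨g, hgQ⟩ : Q F)⁻¹ * pq a * ⟨g, hgQ⟩) rfl
    rw [hom_conj, xi_apply, xi_apply, ha] at h1
    rw [h1]
  · apply hne
    ext1 t
    obtain ⟨γ, rfl⟩ := QuotientGroup.mk'_surjective _ g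
    obtain ⟨a, b, hab, ha, hb⟩ := exists_conj (g := γ) hgQ t
    have h2 := hg (pq a) (pq b) (by rw [pq_coe, pq_coe, hab, map_mul, map_mul, map_inv])
    rw [xi_apply, xi_apply, ha, hb, map_one] at h2
    rw [h2]
    rfl

theorem ind_ne {lam mu : Fˣ →* ℂˣ} (hl : ∀ c : Fˣ, c ^ 3 = 1 → lam c = 1) (hm : ∀ c : Fˣ, c ^ 3 = 1 → mu c = 1)
    (hne : lam ≠ 1) (hne' : lam ≠ mu) : ic lam hl ≠ ic mu hm := by
  intro h
  have h1 := inner_ind hl hm hne hne'
  rw [← h, Characters.Core.classInner_irr_self (irr_ind hl hne)] at h1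
  exact one_ne_zero h1

theorem index_Q : (Q F).index = Fintype.card F ^ 2 + Fintype.card F + 1 := by
  have htr : MulAction.IsPretransitive (ProjectiveSpecialLinearGroup (Fin 3) F) (ℙ F (Fin 3 → F)) := inferInstance
  rw [Q, MulAction.index_stabilizer_of_transitive,
    Projectivization.card_of_finrank F (Fin 3 → F) (n := 3) (by simp), Nat.card_eq_fintype_card]
  simp [Finset.sum_range_succ]
  ring

theorem ind_one (lam : Fˣ →* ℂˣ) (h : ∀ c : Fˣ, c ^ 3 = 1 → lam c = 1) :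
    ic lam h 1 = ((Fintype.card F ^ 2 + Fintype.card F + 1 : ℕ) : ℂ) := by
  unfold ic
  rw [OddOrderCharacters.IndRes.indFun_apply_one, map_one, Units.val_one, mul_one, index_Q]

end

end Cfsg.Agent.H855.FourOdd
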